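import Cfsg.Prelude.Def_AxialAlgebras

/-!
Facts about one Majorana axis `a` and an arbitrary vector `x`: the splitting of `x` into eigenvectors, the
element `sig a x = a ∘ x - (a + x)/32`, and the two consequences of the fusion law used in Sakuma's argument.
-/

set_option autoImplicit false

open Cfsg.Axial

namespace Cfsg.Agent.Majorana

variable {V : Type*} [AddCommGroup V] [Module ℝ V] {mul : V →ₗ[ℝ] V →ₗ[ℝ] V}
  {B : LinearMap.BilinForm ℝ V} {μ μ' : V ≃ₗ[ℝ] V} {a : V}

/-- The automorphisms preserving a product and a form act on Majorana pairs by conjugation. -/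
theorem pair_map (φ : V ≃ₗ[ℝ] V)
    (hm : ∀ u v : V, φ (mul u v) = mul (φ u) (φ v)) (hB : ∀ u v : V, B (φ u) (φ v) = B u v)
    (h : IsMajoranaPair mul B μ a) :
    IsMajoranaPair mul B (φ * μ * φ⁻¹) (φ a) := by
  obtain ⟨hμm, hμB, ⟨⟨ha0, haa, htop, hfus⟩, hprim⟩, hfix, hneg⟩ := h
  have hmem : ∀ c w, w ∈ eigen mul (φ a) c ↔ φ.symm w ∈ eigen mul a c := by
    intro c w
    simp only [eigen, Module.End.mem_eigenspace_iff]
    rw [← φ.injective.eq_iff (a := mul a (φ.symm w)), hm, map_smul, φ.apply_symm_apply]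
  have heig : ∀ c, eigen mul (φ a) c = (eigen mul a c).map φ.toLinearMap := fun c => by
    ext w; rw [hmem]; exact (Submodule.mem_map_equiv _).symm
  have hsum : ∀ S, eigenSum mul (φ a) S = (eigenSum mul a S).map φ.toLinearMap := fun S => by
    simp only [eigenSum, Submodule.map_iSup, heig]
  have happ : ∀ w, (φ * μ * φ⁻¹) w = φ (μ (φ.symm w)) := fun w => rfl
  have hsymm : ∀ u v, φ.symm (mul u v) = mul (φ.symm u) (φ.symm v) := fun u v => by
    apply φ.injective; simp [hm]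
  refine ⟨fun u v => by simp only [happ, hsymm, hμm, hm], fun u v => ?_,
    ⟨⟨φ.map_ne_zero_iff.2 ha0, by rw [← hm, haa], ?_, ?_⟩, ?_⟩, ?_, ?_⟩
  · rw [happ, happ, hB, hμB]
    conv_rhs => rw [← φ.apply_symm_apply u, ← φ.apply_symm_apply v]
    rw [hB]
  · rw [hsum, htop]; simp
  · intro c hc d hd u hu v hv
    rw [hsum, Submodule.mem_map_equiv, hsymm]
    exact hfus c hc d hd _ ((hmem c u).1 hu) _ ((hmem d v).1 hv)
  · rw [heig, hprim, Submodule.map_span]; simp
  · intro v hv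
    rw [hsum, Submodule.mem_map_equiv] at hv
    have h := hfix _ hv
    simp only [LinearEquiv.coe_coe] at h ⊢
    rw [happ, h, φ.apply_symm_apply]
  · intro v hv
    have h := hneg _ ((hmem _ v).1 hv)
    simp only [LinearEquiv.coe_coe] at h ⊢
    rw [happ, h, map_neg, φ.apply_symm_apply]

theorem full_decomp (ha : IsMajoranaPair mul B μ a) :
    eigenSum mul a {1, 0, 1 / 4} ⊔ eigen mul a (1 / 32) = ⊤ := by
  rw [← ha.2.2.1.1.2.2.1]
  simp only [eigenSum, majoranaSpectrum, iSup_insert, iSup_singleton]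
  ac_rfl

/-- The involution is determined by its axis. -/
theorem pair_unique (ha : IsMajoranaPair mul B μ a) (ha' : IsMajoranaPair mul B μ' a) : μ = μ' := by
  ext x
  obtain ⟨p, hp, q, hq, rfl⟩ :=
    Submodule.mem_sup.1 (full_decomp ha ▸ Submodule.mem_top : x ∈ _)
  have h1 : μ p = p := ha.2.2.2.1 p hp
  have h2 : μ q = -q := ha.2.2.2.2 q hq
  have h3 : μ' p = p := ha'.2.2.2.1 p hp
  have h4 : μ' q = -q := ha'.2.2.2.2 q hq
  simp [h1, h2, h3, h4]

theorem pair_invol (ha : IsMajoranaPair mul B μ a) : μ * μ = 1 := by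
  ext x
  obtain ⟨p, hp, q, hq, rfl⟩ :=
    Submodule.mem_sup.1 (full_decomp ha ▸ Submodule.mem_top : x ∈ _)
  have h1 : μ p = p := ha.2.2.2.1 p hp
  have h2 : μ q = -q := ha.2.2.2.2 q hq
  simp [h1, h2]

theorem pair_fix (ha : IsMajoranaPair mul B μ a) {c : ℝ} (hc : c ∈ ({1, 0, 1 / 4} : Set ℝ))
    {w : V} (hw : w ∈ eigen mul a c) : μ w = w := by
  refine ha.2.2.2.1 w ?_
  exact Submodule.mem_iSup_of_mem c (Submodule.mem_iSup_of_mem hc hw)

theorem pair_self (ha : IsMajoranaPair mul B μ a) : μ a = a :=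
  pair_fix ha (c := 1) (by simp) (Module.End.mem_eigenspace_iff.2 (by simpa using ha.2.2.1.1.2.1))

theorem norm_le_one_mem (hV : IsMajoranaAmbient mul B) {b : V} (ha : mul a a = a) (hb : mul b b = b) :
    0 ≤ B a b := by
  obtain ⟨-, -, hpos, -, hN⟩ := hV
  have h := hN a b
  rw [ha, hb] at h
  rcases eq_or_ne (mul a b) 0 with h0 | h0
  · rw [h0] at h; simpa using h
  · exact (hpos _ h0).le.trans h

theorem eq_of_form_one (hV : IsMajoranaAmbient mul B) {b : V} (ha : B a a = 1) (hb : B b b = 1)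
    (hab : B a b = 1) : a = b := by
  obtain ⟨-, hBs, hpos, -, -⟩ := hV
  by_contra h
  have h1 := hpos (a - b) (sub_ne_zero.2 h)
  simp only [map_sub, LinearMap.sub_apply, ha, hb, hab, hBs b a] at h1
  norm_num at h1

/-- `a ∘ x - (a + x)/32`. -/
noncomputable def sig (mul : V →ₗ[ℝ] V →ₗ[ℝ] V) (a x : V) : V :=
  mul a x - (1 / 32 : ℝ) • (a + x)

theorem sig_comm (hV : IsMajoranaAmbient mul B) (a x : V) : sig mul a x = sig mul x a := by
  unfold sig; rw [hV.1 a x, add_comm a x]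

theorem map_sig (φ : V ≃ₗ[ℝ] V) (hm : ∀ u v : V, φ (mul u v) = mul (φ u) (φ v)) (a x : V) :
    φ (sig mul a x) = sig mul (φ a) (φ x) := by
  simp [sig, hm]

theorem split (hV : IsMajoranaAmbient mul B) (ha : IsMajoranaPair mul B μ a) (hna : B a a = 1)
    (x : V) :
    ∃ u v w : V, mul a u = 0 ∧ mul a v = (1 / 4 : ℝ) • v ∧ mul a w = (1 / 32 : ℝ) • w ∧
      μ u = u ∧ μ v = v ∧ μ w = -w ∧ u ∈ eigen mul a 0 ∧ v ∈ eigen mul a (1 / 4) ∧
      x = B a x • a + u + v + w ∧ B a u = 0 ∧ B a v = 0 := by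
  obtain ⟨p, hp, w, hw, hpw⟩ := Submodule.mem_sup.1 (full_decomp ha ▸ Submodule.mem_top : x ∈ _)
  subst hpw
  have hassoc := hV.2.2.2.1
  have haa := ha.2.2.1.1.2.1
  simp only [eigenSum, iSup_insert, iSup_singleton] at hp
  obtain ⟨y, hy, r, hr, rfl⟩ := Submodule.mem_sup.1 hp
  obtain ⟨u, hu, v, hv, rfl⟩ := Submodule.mem_sup.1 hr
  rw [ha.2.2.1.2] at hy
  obtain ⟨al, rfl⟩ := Submodule.mem_span_singleton.1 hy
  have eu : mul a u = 0 := by simpa using Module.End.mem_eigenspace_iff.1 hu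
  have ev : mul a v = (1 / 4 : ℝ) • v := Module.End.mem_eigenspace_iff.1 hv
  have ew : mul a w = (1 / 32 : ℝ) • w := Module.End.mem_eigenspace_iff.1 hw
  have orth : ∀ (c : ℝ) (z : V), mul a z = c • z → c ≠ 1 → B a z = 0 := by
    intro c z hz hc
    have h := hassoc a a z
    rw [haa, hz, map_smul, smul_eq_mul] at h
    rcases mul_eq_zero.1 (show (c - 1) * B a z = 0 by linarith) with h' | h'
    · exact absurd (sub_eq_zero.1 h') hc
    · exact h'
  have bu : B a u = 0 := orth 0 u (by rw [eu, zero_smul]) (by norm_num)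
  have bv := orth _ v ev (by norm_num)
  have bw := orth _ w ew (by norm_num)
  refine ⟨u, v, w, eu, ev, ew, pair_fix ha (by simp) hu, pair_fix ha (by simp) hv,
    ha.2.2.2.2 w hw, hu, hv, ?_, bu, bv⟩
  have : B a (al • a + (u + v) + w) = al := by simp [hna, bu, bv, bw]
  rw [this]; abel

theorem sig_fixed (hV : IsMajoranaAmbient mul B) (ha : IsMajoranaPair mul B μ a) (hna : B a a = 1)
    (x : V) : μ (sig mul a x) = sig mul a x := by
  obtain ⟨u, v, w, eu, ev, ew, fu, fv, fw, -, -, hx, -, -⟩ := split hV ha hna x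
  have haa := ha.2.2.1.1.2.1
  have : sig mul a x = (B a x - 1 / 32 - B a x / 32) • a + (7 / 32 : ℝ) • v - (1 / 32 : ℝ) • u := by
    unfold sig
    generalize B a x = l at hx ⊢
    subst hx
    simp only [map_add, map_smul, haa, eu, ev, ew]
    module
  rw [this]
  simp only [map_add, map_sub, map_smul, fu, fv, pair_self ha]

theorem mul_sig (hV : IsMajoranaAmbient mul B) (ha : IsMajoranaPair mul B μ a) (hna : B a a = 1)
    (x : V) : mul a (sig mul a x) = (3 * B a x / 4 - 25 / 1024) • a + (7 / 32 : ℝ) • sig mul a x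
      + (7 / 2048 : ℝ) • (x + μ x) := by
  obtain ⟨u, v, w, eu, ev, ew, fu, fv, fw, -, -, hx, -, -⟩ := split hV ha hna x
  have haa := ha.2.2.1.1.2.1
  unfold sig
  generalize B a x = l at hx ⊢
  subst hx
  simp only [map_zero, map_add, map_sub, map_smul, haa, eu, ev, ew, fu, fv, fw, pair_self ha]
  module

theorem form_sig (hV : IsMajoranaAmbient mul B) (ha : IsMajoranaPair mul B μ a) (hna : B a a = 1)
    (x : V) : B a (sig mul a x) = B a x - 1 / 32 - B a x / 32 := by
  have h := hV.2.2.2.1 a a x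
  rw [ha.2.2.1.1.2.1] at h
  simp only [sig, map_sub, map_smul, map_add, smul_eq_mul, hna, h]
  ring

/-- The `0`-part and the `1/4`-part of `x`, in terms of `x`, `μ x`, `a` and `sig a x`. -/
noncomputable def zeroPart (a x x' σ : V) (l : ℝ) : V :=
  (7 / 16 : ℝ) • (x + x') + (3 * l - 1 / 8) • a - (4 : ℝ) • σ

noncomputable def quarterPart (a x x' σ : V) (l : ℝ) : V :=
  (4 : ℝ) • σ + (1 / 8 - 4 * l) • a + (1 / 16 : ℝ) • (x + x')

theorem fusion_consequences (hV : IsMajoranaAmbient mul B) (ha : IsMajoranaPair mul B μ a)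
    (hna : B a a = 1) {x x' σ u₁ v₁ : V} {l : ℝ} (hx' : μ x = x') (hσ : sig mul a x = σ)
    (hl : B a x = l) (hu₁ : zeroPart a x x' σ l = u₁) (hv₁ : quarterPart a x x' σ l = v₁) :
    mul a (mul u₁ u₁ - mul v₁ v₁) = -((B v₁ v₁ / 4) • a) ∧
      mul v₁ v₁ = B v₁ v₁ • a + mul v₁ ((1 / 2 : ℝ) • (x + x') - l • a)
        - (4 : ℝ) • mul a (mul v₁ ((1 / 2 : ℝ) • (x + x') - l • a)) := by
  obtain ⟨u, v, w, eu, ev, ew, fu, fv, fw, hu, hv, hx, -, bv⟩ := split hV ha hna x
  obtain ⟨hcomm, hBs, hpos, hassoc, -⟩ := hV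
  obtain ⟨-, -, ⟨⟨-, haa, -, hfus⟩, hprim⟩, -, -⟩ := id ha
  rw [hl] at hx
  have hq : v₁ = v := by
    rw [← hv₁, ← hσ, ← hx', quarterPart]
    unfold sig
    subst hx
    simp only [map_add, map_smul, haa, eu, ev, ew, fu, fv, fw, pair_self ha]
    module
  have hz : u₁ = u := by
    rw [← hu₁, ← hσ, ← hx', zeroPart]
    unfold sig
    subst hx
    simp only [map_add, map_smul, haa, eu, ev, ew, fu, fv, fw, pair_self ha]
    module
  have hs : (1 / 2 : ℝ) • (x + x') - l • a = u + v := by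
    rw [← hx']
    subst hx
    simp only [map_add, map_smul, fu, fv, fw, pair_self ha]
    module
  rw [hq, hz, hs]
  have s0 : (0 : ℝ) ∈ majoranaSpectrum := by simp [majoranaSpectrum]
  have s4 : (1 / 4 : ℝ) ∈ majoranaSpectrum := by simp [majoranaSpectrum]
  have huu := hfus 0 s0 0 s0 u hu u hu
  have huv := hfus 0 s0 _ s4 u hu v hv
  have hvv := hfus _ s4 _ s4 v hv v hv
  norm_num [monsterLaw] at huu hvv huv
  simp only [eigenSum, iSup_insert, iSup_singleton] at huu hvv huv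
  have euu : mul a (mul u u) = 0 := by simpa using Module.End.mem_eigenspace_iff.1 huu
  have euv : mul a (mul u v) = (1 / 4 : ℝ) • mul u v := Module.End.mem_eigenspace_iff.1 huv
  obtain ⟨y, hy, z, hzmem, hyz⟩ := Submodule.mem_sup.1 hvv
  rw [hprim] at hy
  obtain ⟨ζ, rfl⟩ := Submodule.mem_span_singleton.1 hy
  have ez : mul a z = 0 := by simpa using Module.End.mem_eigenspace_iff.1 hzmem
  have bz : B a z = 0 := by
    have h := hassoc a a z
    rw [haa, ez, map_zero] at h
    exact h.symm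
  have evv : mul a (mul v v) = (B v v / 4) • a := by
    have hb : B a (mul v v) = ζ := by rw [← hyz]; simp [hna, bz]
    have hb' := hassoc a v v
    rw [ev, map_smul, LinearMap.smul_apply, smul_eq_mul, hb] at hb'
    rw [← hyz, map_add, map_smul, haa, ez, hb']
    module
  refine ⟨?_, ?_⟩
  · rw [map_sub, euu, evv, zero_sub]
  · simp only [map_add, hcomm v u, euv, evv]
    module

end Cfsg.Agent.Majorana
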