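import Cfsg.Agent.Majorana.Axis

/-!
An orbit of axes under a dihedral group of Majorana involutions: invariance of inner products and of the
elements `sig`, and the products determined by the fusion law (Sakuma's argument, first half).
-/

set_option autoImplicit false

open Cfsg.Axial

namespace Cfsg.Agent.Majorana

variable {V : Type*} [AddCommGroup V] [Module ℝ V]

/-- A sequence of axes indexed by `ℤ`, each involution reflecting the indices. -/
structure AxisSeq (mul : V →ₗ[ℝ] V →ₗ[ℝ] V) (B : LinearMap.BilinForm ℝ V) (a : ℤ → V)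
    (μ : ℤ → V ≃ₗ[ℝ] V) : Prop where
  ambient : IsMajoranaAmbient mul B
  pair : ∀ j, IsMajoranaPair mul B (μ j) (a j)
  norm : ∀ j, B (a j) (a j) = 1
  refl : ∀ j i, μ j (a i) = a (2 * j - i)

variable {mul : V →ₗ[ℝ] V →ₗ[ℝ] V} {B : LinearMap.BilinForm ℝ V} {a : ℤ → V}
  {μ : ℤ → V ≃ₗ[ℝ] V}

theorem int_const {α : Sort*} (f : ℤ → α) (h : ∀ j, f (j + 1) = f j) (j : ℤ) : f j = f 0 := by
  induction j using Int.induction_on with
  | zero => rfl
  | succ i hi => rw [h, hi]
  | pred i hi => rw [← hi, ← h (-(i : ℤ) - 1), sub_add_cancel]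

theorem int_period {α : Sort*} (f : ℤ → α) (h : ∀ j, f (j + 2) = f j) (j m : ℤ) :
    f (j + 2 * m) = f j := by
  have := int_const (fun m => f (j + 2 * m)) (fun m => by
    show f (j + 2 * (m + 1)) = f (j + 2 * m)
    rw [show j + 2 * (m + 1) = j + 2 * m + 2 by ring, h]) m
  simpa using this

namespace AxisSeq

variable (S : AxisSeq mul B a μ)
include S

theorem idem (j : ℤ) : mul (a j) (a j) = a j := (S.pair j).2.2.1.1.2.1

theorem reflect {j i k : ℤ} (h : i + k = 2 * j) : μ j (a i) = a k := by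
  rw [S.refl]; congr 1; omega

theorem form_one (j : ℤ) : B (a j) (a (j + 1)) = B (a 0) (a 1) := by
  refine int_const (fun j => B (a j) (a (j + 1))) (fun j => ?_) j
  have h := (S.pair (j + 1)).2.1 (a (j + 1)) (a (j + 1 + 1))
  rw [S.reflect (k := j + 1) (by ring), S.reflect (k := j) (by ring)] at h
  exact h.symm.trans (S.ambient.2.1 _ _)

theorem form_adj {L : ℝ} (hL : B (a 0) (a 1) = L) {i k : ℤ} (h : k = i + 1 ∨ i = k + 1) :
    B (a i) (a k) = L := by
  rcases h with rfl | rfl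
  · rw [S.form_one, hL]
  · rw [S.ambient.2.1, S.form_one, hL]

theorem sig_one (j : ℤ) : sig mul (a j) (a (j + 1)) = sig mul (a 0) (a 1) := by
  refine int_const (fun j => sig mul (a j) (a (j + 1))) (fun j => ?_) j
  have h := sig_fixed S.ambient (S.pair (j + 1)) (S.norm _) (a (j + 1 + 1))
  rw [map_sig _ (S.pair (j + 1)).1, S.reflect (k := j + 1) (by ring),
    S.reflect (k := j) (by ring)] at h
  exact h.symm.trans (sig_comm S.ambient _ _)

theorem sig_adj {s : V} (hs : sig mul (a 0) (a 1) = s) {i k : ℤ} (h : k = i + 1 ∨ i = k + 1) :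
    sig mul (a i) (a k) = s := by
  rcases h with rfl | rfl
  · rw [S.sig_one, hs]
  · rw [sig_comm S.ambient, S.sig_one, hs]

theorem mul_adj {s : V} (hs : sig mul (a 0) (a 1) = s) {i k : ℤ} (h : k = i + 1 ∨ i = k + 1) :
    mul (a i) (a k) = s + (1 / 32 : ℝ) • (a i + a k) := by
  rw [← S.sig_adj hs h]; simp [sig]

theorem fix_s {s : V} (hs : sig mul (a 0) (a 1) = s) (j : ℤ) : μ j s = s := by
  rw [← S.sig_adj hs (i := j) (k := j + 1) (Or.inl rfl)]
  exact sig_fixed S.ambient (S.pair j) (S.norm j) _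

theorem mul_s {s : V} {L : ℝ} (hs : sig mul (a 0) (a 1) = s) (hL : B (a 0) (a 1) = L) {i j k : ℤ}
    (hi : i = j + 1) (hk : k = j - 1) :
    mul (a j) s = (3 * L / 4 - 25 / 1024) • a j + (7 / 32 : ℝ) • s + (7 / 2048 : ℝ) • (a i + a k) := by
  have h := mul_sig S.ambient (S.pair j) (S.norm j) (a i)
  rwa [S.sig_adj hs (Or.inl hi), S.form_adj hL (Or.inl hi), S.reflect (k := k) (by omega)] at h

theorem form_s {s : V} {L : ℝ} (hs : sig mul (a 0) (a 1) = s) (hL : B (a 0) (a 1) = L) (j : ℤ) :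
    B (a j) s = L - 1 / 32 - L / 32 := by
  have h := form_sig S.ambient (S.pair j) (S.norm j) (a (j + 1))
  rwa [S.sig_adj hs (Or.inl rfl), S.form_adj hL (Or.inl rfl)] at h

/-- `B s s`, computed from the axis with index `j`. -/
theorem form_ss_at {s : V} {L : ℝ} (hs : sig mul (a 0) (a 1) = s) (hL : B (a 0) (a 1) = L) (j : ℤ) :
    B s s = (3 * L / 4 - 25 / 1024) * L + (7 / 32) * (L - 1 / 32 - L / 32)
      + (7 / 2048) * (1 + B (a (j - 1)) (a (j + 1))) - (1 / 16) * (L - 1 / 32 - L / 32) := by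
  conv_lhs => arg 2; rw [← S.sig_adj hs (i := j) (k := j + 1) (Or.inl rfl)]
  simp only [sig, map_sub, map_smul, map_add, smul_eq_mul]
  rw [S.ambient.2.2.2.1 s (a j) (a (j + 1)), S.ambient.1 s (a j),
    S.mul_s hs hL (i := j + 1) (k := j - 1) rfl rfl, S.ambient.2.1 s (a j),
    S.ambient.2.1 s (a (j + 1)), S.form_s hs hL j, S.form_s hs hL (j + 1)]
  simp only [map_add, map_smul, LinearMap.add_apply, LinearMap.smul_apply, smul_eq_mul,
    S.norm, S.form_adj hL (Or.inl rfl : (j + 1) = j + 1 ∨ j = j + 1 + 1),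
    S.ambient.2.1 s (a (j + 1)), S.form_s hs hL (j + 1)]
  ring

theorem form_two (j : ℤ) : B (a j) (a (j + 2)) = B (a 0) (a 2) := by
  refine int_const (fun j => B (a j) (a (j + 2))) (fun j => ?_) j
  have h1 := S.form_ss_at rfl rfl (j + 1)
  have h2 := S.form_ss_at rfl rfl (j + 2)
  rw [show j + 1 - 1 = j by ring, show j + 1 + 1 = j + 2 by ring] at h1
  rw [show j + 2 - 1 = j + 1 by ring, show j + 2 + 1 = j + 1 + 2 by ring] at h2
  show B (a (j + 1)) (a (j + 1 + 2)) = B (a j) (a (j + 2))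
  linarith

theorem form_skip {M : ℝ} (hM : B (a 0) (a 2) = M) {i k : ℤ} (h : k = i + 2 ∨ i = k + 2) :
    B (a i) (a k) = M := by
  rcases h with rfl | rfl
  · rw [S.form_two, hM]
  · rw [S.ambient.2.1, S.form_two, hM]

theorem sig_two (j : ℤ) : sig mul (a (j + 2)) (a (j + 2 + 2)) = sig mul (a j) (a (j + 2)) := by
  have h := sig_fixed S.ambient (S.pair (j + 2)) (S.norm _) (a (j + 2 + 2))
  rw [map_sig _ (S.pair (j + 2)).1, S.reflect (k := j + 2) (by ring),
    S.reflect (k := j) (by ring)] at h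
  exact h.symm.trans (sig_comm S.ambient _ _)

/-- The element `sig (a j) (a (j + 2))` depends only on the parity of `j`. -/
theorem sig_skip {t : V} {j i k : ℤ} (ht : sig mul (a j) (a (j + 2)) = t) (h : k = i + 2 ∨ i = k + 2)
    (hp : (i - j) % 2 = 0) : sig mul (a i) (a k) = t := by
  have key : ∀ m, sig mul (a (j + 2 * m)) (a (j + 2 * m + 2)) = t := fun m => by
    rw [int_period (fun j => sig mul (a j) (a (j + 2))) (fun j => S.sig_two j) j m, ht]
  rcases h with rfl | rfl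
  · have := key ((i - j) / 2); rwa [show j + 2 * ((i - j) / 2) = i by omega] at this
  · have := key ((k - j) / 2)
    rwa [show j + 2 * ((k - j) / 2) = k by omega, sig_comm S.ambient] at this

theorem mul_skip {t : V} {j i k : ℤ} (ht : sig mul (a j) (a (j + 2)) = t) (h : k = i + 2 ∨ i = k + 2)
    (hp : (i - j) % 2 = 0) : mul (a i) (a k) = t + (1 / 32 : ℝ) • (a i + a k) := by
  rw [← S.sig_skip ht h hp]; simp [sig]

theorem fix_t {t : V} {j : ℤ} (ht : sig mul (a j) (a (j + 2)) = t) (i : ℤ) : μ i t = t := by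
  conv_lhs => rw [← ht, map_sig _ (S.pair i).1, S.refl, S.refl]
  exact S.sig_skip ht (Or.inr (by ring)) (by omega)

theorem mul_t {t : V} {M : ℝ} {j : ℤ} (ht : sig mul (a j) (a (j + 2)) = t) (hM : B (a 0) (a 2) = M)
    {i m k : ℤ} (hi : i = m + 2) (hk : k = m - 2) (hp : (m - j) % 2 = 0) :
    mul (a m) t = (3 * M / 4 - 25 / 1024) • a m + (7 / 32 : ℝ) • t + (7 / 2048 : ℝ) • (a i + a k) := by
  have h := mul_sig S.ambient (S.pair m) (S.norm m) (a i)
  rwa [S.sig_skip ht (Or.inl hi) hp, S.form_skip hM (Or.inl hi), S.reflect (k := k) (by omega)] at h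

theorem form_t_same {t : V} {M : ℝ} {j : ℤ} (ht : sig mul (a j) (a (j + 2)) = t)
    (hM : B (a 0) (a 2) = M) {m : ℤ} (hp : (m - j) % 2 = 0) :
    B (a m) t = M - 1 / 32 - M / 32 := by
  have h := form_sig S.ambient (S.pair m) (S.norm m) (a (m + 2))
  rwa [S.sig_skip ht (Or.inl rfl) hp, S.form_skip hM (Or.inl rfl)] at h

theorem form_t_other {t : V} {L M : ℝ} {j : ℤ} (ht : sig mul (a j) (a (j + 2)) = t)
    (hL : B (a 0) (a 1) = L) (hM : B (a 0) (a 2) = M) {m : ℤ} (hp : (m - j) % 2 = 1) :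
    B (a m) t = (L - 1 / 32 - L / 32) + (1 / 32) * (M - L) := by
  rw [← S.sig_skip ht (i := m - 1) (k := m + 1) (Or.inl (by ring)) (by omega)]
  simp only [sig, map_sub, map_smul, map_add, smul_eq_mul]
  rw [S.ambient.2.2.2.1 (a m) (a (m - 1)) (a (m + 1)),
    S.mul_adj rfl (i := m) (k := m - 1) (Or.inr (by ring))]
  simp only [map_add, map_smul, LinearMap.add_apply, LinearMap.smul_apply, smul_eq_mul,
    S.form_adj hL (Or.inl rfl : (m + 1) = m + 1 ∨ m = m + 1 + 1),
    S.form_adj hL (i := m) (k := m - 1) (Or.inr (by ring)),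
    S.form_skip hM (i := m - 1) (k := m + 1) (Or.inl (by ring)),
    S.ambient.2.1 (sig mul (a 0) (a 1)) (a (m + 1)), S.form_s rfl hL (m + 1)]
  ring

theorem form_ss {s : V} {L M : ℝ} (hs : sig mul (a 0) (a 1) = s) (hL : B (a 0) (a 1) = L)
    (hM : B (a 0) (a 2) = M) :
    B s s = (3 * L / 4 - 25 / 1024) * L + (7 / 32) * (L - 1 / 32 - L / 32)
      + (7 / 2048) * (1 + M) - (1 / 16) * (L - 1 / 32 - L / 32) := by
  rw [S.form_ss_at hs hL 1]; norm_num [hM]

/-- Sakuma's two product formulas at the axis with index `j`. -/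
theorem key_products {s t t' : V} {L M : ℝ} {j j₁ j₂ m₁ m₂ : ℤ} (hs : sig mul (a 0) (a 1) = s)
    (hL : B (a 0) (a 1) = L) (hM : B (a 0) (a 2) = M) (ht : sig mul (a j) (a (j + 2)) = t)
    (ht' : sig mul (a (j + 1)) (a (j + 1 + 2)) = t') (h1 : j₁ = j + 1) (h2 : j₂ = j + 2)
    (g1 : m₁ = j - 1) (g2 : m₂ = j - 2) :
    mul (a j) t' = (-19 / 3072 + L / 6) • (a j₁ + a m₁) + (7 / 6144 : ℝ) • (a j₂ + a m₂)
        + (-127 / 3072 + 5 / 3 * L - 32 / 3 * L ^ 2 - M / 24) • a j + (7 / 96 : ℝ) • t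
        + (-19 / 48 + 32 / 3 * L) • s ∧
      mul s s = (-245 / 196608 + 49 / 768 * L) • (a j₁ + a m₁) + (49 / 196608 : ℝ) • (a j₂ + a m₂)
        + (-7 / 98304 - 7 / 384 * L + 7 / 6 * L ^ 2 + 7 / 1536 * M) • a j - (7 / 1536 : ℝ) • t
        + (7 / 2048 : ℝ) • t' + (-13 / 1536 - 5 / 12 * L) • s := by
  obtain ⟨hcomm, hBs, -, -, -⟩ := id S.ambient
  have hμ : μ j (a j₁) = a m₁ := S.reflect (by omega)
  obtain ⟨hA, hB⟩ := fusion_consequences S.ambient (S.pair j) (S.norm j) hμ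
    (S.sig_adj hs (Or.inl h1)) (S.form_adj hL (Or.inl h1)) rfl rfl
  have p1 := S.idem j
  have p2 := S.idem j₁
  have p3 := S.idem m₁
  have p4 := S.mul_adj hs (i := j) (k := j₁) (Or.inl h1)
  have p5 := S.mul_adj hs (i := j) (k := m₁) (Or.inr (by omega))
  have p4' : mul (a j₁) (a j) = s + (1 / 32 : ℝ) • (a j + a j₁) := by rw [hcomm, p4]
  have p5' : mul (a m₁) (a j) = s + (1 / 32 : ℝ) • (a j + a m₁) := by rw [hcomm, p5]
  have p6 := S.mul_skip ht' (i := j₁) (k := m₁) (Or.inr (by omega)) (by omega)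
  have p6' : mul (a m₁) (a j₁) = t' + (1 / 32 : ℝ) • (a j₁ + a m₁) := by rw [hcomm, p6]
  have p7 := S.mul_skip ht (i := j) (k := j₂) (Or.inl h2) (by omega)
  have p8 := S.mul_skip ht (i := j) (k := m₂) (Or.inr (by omega)) (by omega)
  have q1 := S.mul_s hs hL (j := j) (i := j₁) (k := m₁) h1 g1
  have q2 := S.mul_s hs hL (j := j₁) (i := j₂) (k := j) (by omega) (by omega)
  have q3 := S.mul_s hs hL (j := m₁) (i := j) (k := m₂) (by omega) (by omega)
  have q1' : mul s (a j) = mul (a j) s := hcomm _ _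
  have q2' : mul s (a j₁) = mul (a j₁) s := hcomm _ _
  have q3' : mul s (a m₁) = mul (a m₁) s := hcomm _ _
  rw [q1] at q1'; rw [q2] at q2'; rw [q3] at q3'
  have hnorm : B (quarterPart (a j) (a j₁) (a m₁) s L) (quarterPart (a j) (a j₁) (a m₁) s L)
      = -1 / 16 + 4 * L - 4 * L ^ 2 + M / 16 := by
    simp only [quarterPart, map_add, map_smul, LinearMap.add_apply, LinearMap.smul_apply, smul_eq_mul,
      S.norm, S.form_s hs hL, hBs s, S.form_ss hs hL hM,
      S.form_adj hL (i := j) (k := j₁) (Or.inl h1), S.form_adj hL (i := j₁) (k := j) (Or.inr h1),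
      S.form_adj hL (i := j) (k := m₁) (Or.inr (by omega)),
      S.form_adj hL (i := m₁) (k := j) (Or.inl (by omega)),
      S.form_skip hM (i := j₁) (k := m₁) (Or.inr (by omega)),
      S.form_skip hM (i := m₁) (k := j₁) (Or.inl (by omega))]
    ring
  rw [hnorm] at hA hB
  simp only [quarterPart, zeroPart, map_add, map_sub, map_smul, map_zero, LinearMap.add_apply,
    LinearMap.sub_apply, LinearMap.smul_apply, p1, p2, p3, p4, p5, p4', p5', p6, p6', p7, p8,
    q1, q2, q3, q1', q2', q3'] at hA hB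
  have hopp : mul (a j) t' = (-19 / 3072 + L / 6) • (a j₁ + a m₁) + (7 / 6144 : ℝ) • (a j₂ + a m₂)
        + (-127 / 3072 + 5 / 3 * L - 32 / 3 * L ^ 2 - M / 24) • a j + (7 / 96 : ℝ) • t
        + (-19 / 48 + 32 / 3 * L) • s := by
    linear_combination (norm := module) (8 / 3 : ℝ) • hA
  refine ⟨hopp, ?_⟩
  rw [hopp] at hB
  linear_combination (norm := module) (1 / 16 : ℝ) • hB

end AxisSeq

end Cfsg.Agent.Majorana
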