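import Cfsg.Agent.Majorana.Dihedral

/-!
Sakuma's theorem in the Majorana setting: a dihedral orbit of axes has period at most six.
-/

set_option autoImplicit false
set_option linter.unusedSimpArgs false
set_option linter.unusedVariables false

open Cfsg.Axial

namespace Cfsg.Agent.Majorana

variable {V : Type*} [AddCommGroup V] [Module ℝ V]
variable {mul : V →ₗ[ℝ] V →ₗ[ℝ] V} {B : LinearMap.BilinForm ℝ V} {a : ℤ → V}
  {μ : ℤ → V ≃ₗ[ℝ] V}

/-- The coefficient of `a j - a (j + 1)` in Sakuma's relation. -/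
noncomputable def relCoef (L M : ℝ) : ℝ :=
  33 / 7 - 2304 / 7 * L + 32768 / 7 * L ^ 2 + 128 / 7 * M

/-- `B (a 0) t'` minus `B (a 0) t`, with its sign. -/
noncomputable def tGap (L M : ℝ) : ℝ :=
  ((L - 1 / 32 - L / 32) + (1 / 32) * (M - L)) - (M - 1 / 32 - M / 32)

/-- `B (a j) (a (j + 3))`. -/
noncomputable def formThree (L M : ℝ) : ℝ :=
  M + (256 * L - 6) * (L - M) + relCoef L M * (1 - L) + 32 * tGap L M

/-- `B (a (j + 2)) (a (j - 2))`. -/
noncomputable def formFour (L M : ℝ) : ℝ :=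
  L - (256 * L - 6) * (formThree L M - 1) - relCoef L M * (M - L) - 32 * tGap L M

/-- `B (a (j - 2)) (a (j + 3))`. -/
noncomputable def formFive (L M : ℝ) : ℝ :=
  1 + (256 * L - 6) * (L - formFour L M) + relCoef L M * (M - formThree L M) + 32 * tGap L M

/-- `B (a (j - 3)) (a (j + 3))`. -/
noncomputable def formSix (L M : ℝ) : ℝ :=
  L + (256 * L - 6) * (M - formFive L M) + relCoef L M * (formThree L M - formFour L M)
    - 32 * tGap L M

namespace AxisSeq

variable (S : AxisSeq mul B a μ)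
include S

/-- Sakuma's linear relation among six consecutive axes. -/
theorem relation {t t' : V} {L M : ℝ} {j i₁ i₂ i₃ m₁ m₂ : ℤ}
    (hL : B (a 0) (a 1) = L) (hM : B (a 0) (a 2) = M) (ht : sig mul (a j) (a (j + 2)) = t)
    (ht' : sig mul (a (j + 1)) (a (j + 1 + 2)) = t') (h1 : i₁ = j + 1) (h2 : i₂ = j + 2)
    (h3 : i₃ = j + 3) (g1 : m₁ = j - 1) (g2 : m₂ = j - 2) :
    a i₃ = a m₂ + (256 * L - 6) • (a m₁ - a i₂) + relCoef L M • (a j - a i₁)
      + (32 : ℝ) • (t' - t) := by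
  obtain ⟨-, hs0⟩ := S.key_products rfl hL hM ht ht' h1 h2 g1 g2
  have ht2 : sig mul (a (j + 1 + 1)) (a (j + 1 + 1 + 2)) = t :=
    S.sig_skip ht (Or.inl rfl) (by omega)
  obtain ⟨-, hs1⟩ := S.key_products (j := j + 1) (j₁ := i₂) (j₂ := i₃) (m₁ := j) (m₂ := m₁) rfl hL hM
    ht' ht2 (by omega) (by omega) (by omega) (by omega)
  rw [← h1] at hs1
  unfold relCoef
  linear_combination (norm := module) (196608 / 49 : ℝ) • (hs0 - hs1)

theorem form_three {L M : ℝ} (hL : B (a 0) (a 1) = L) (hM : B (a 0) (a 2) = M) {i k : ℤ}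
    (h : k = i + 3 ∨ i = k + 3) : B (a i) (a k) = formThree L M := by
  wlog h' : k = i + 3 generalizing i k
  · rw [S.ambient.2.1]; exact this h.symm (h.resolve_left h')
  subst h'
  rw [S.relation hL hM (t := sig mul (a i) (a (i + 2))) rfl rfl (j := i) (i₁ := i + 1) (i₂ := i + 2)
    (m₁ := i - 1) (m₂ := i - 2) rfl rfl rfl rfl rfl]
  simp only [map_add, map_sub, map_smul, smul_eq_mul, S.norm,
    S.form_adj hL (i := i) (k := i + 1) (Or.inl rfl),
    S.form_adj hL (i := i) (k := i - 1) (Or.inr (by ring)),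
    S.form_skip hM (i := i) (k := i + 2) (Or.inl rfl),
    S.form_skip hM (i := i) (k := i - 2) (Or.inr (by ring)),
    S.form_t_same rfl hM (j := i) (m := i) (by omega),
    S.form_t_other rfl hL hM (j := i + 1) (m := i) (by omega)]
  unfold formThree tGap
  ring

theorem form_four {L M : ℝ} (hL : B (a 0) (a 1) = L) (hM : B (a 0) (a 2) = M) {i k : ℤ}
    (h : k = i + 4 ∨ i = k + 4) : B (a i) (a k) = formFour L M := by
  wlog h' : k = i + 4 generalizing i k
  · rw [S.ambient.2.1]; exact this h.symm (h.resolve_left h')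
  subst h'
  have hr := congrArg (fun w => B (a (i + 4)) w) (S.relation hL hM (t := sig mul (a (i + 2)) (a (i + 2 + 2)))
    rfl rfl (j := i + 2) (i₁ := i + 3) (i₂ := i + 4) (i₃ := i + 5) (m₁ := i + 1) (m₂ := i)
    (by ring) (by ring) (by ring) (by ring) (by ring))
  simp only [map_add, map_sub, map_smul, smul_eq_mul, S.norm,
    S.form_adj hL (i := i + 4) (k := i + 5) (Or.inl (by ring)),
    S.form_adj hL (i := i + 4) (k := i + 3) (Or.inr (by ring)),
    S.form_skip hM (i := i + 4) (k := i + 2) (Or.inr (by ring)),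
    S.form_three hL hM (i := i + 4) (k := i + 1) (Or.inr (by ring)),
    S.form_t_same rfl hM (j := i + 2) (m := i + 4) (by omega),
    S.form_t_other rfl hL hM (j := i + 2 + 1) (m := i + 4) (by omega), S.ambient.2.1 (a (i + 4)) (a i)] at hr
  unfold formFour tGap
  linear_combination -hr

theorem form_five {L M : ℝ} (hL : B (a 0) (a 1) = L) (hM : B (a 0) (a 2) = M) (j : ℤ) :
    B (a (j - 2)) (a (j + 3)) = formFive L M := by
  rw [S.relation hL hM (t := sig mul (a j) (a (j + 2))) rfl rfl (j := j) (i₁ := j + 1) (i₂ := j + 2)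
    (m₁ := j - 1) (m₂ := j - 2) rfl rfl rfl rfl rfl]
  simp only [map_add, map_sub, map_smul, smul_eq_mul, S.norm,
    S.form_adj hL (i := j - 2) (k := j - 1) (Or.inl (by ring)),
    S.form_skip hM (i := j - 2) (k := j) (Or.inl (by ring)),
    S.form_three hL hM (i := j - 2) (k := j + 1) (Or.inl (by ring)),
    S.form_four hL hM (i := j - 2) (k := j + 2) (Or.inl (by ring)),
    S.form_t_same rfl hM (j := j) (m := j - 2) (by omega),
    S.form_t_other rfl hL hM (j := j + 1) (m := j - 2) (by omega)]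
  unfold formFive tGap
  ring

theorem form_six {L M : ℝ} (hL : B (a 0) (a 1) = L) (hM : B (a 0) (a 2) = M) (j : ℤ) :
    B (a (j - 3)) (a (j + 3)) = formSix L M := by
  have h5 : B (a (j - 3)) (a (j + 2)) = formFive L M := by
    have h := S.form_five hL hM (j - 1)
    rwa [show j - 1 - 2 = j - 3 by ring, show j - 1 + 3 = j + 2 by ring] at h
  rw [S.relation hL hM (t := sig mul (a j) (a (j + 2))) rfl rfl (j := j) (i₁ := j + 1) (i₂ := j + 2)
    (m₁ := j - 1) (m₂ := j - 2) rfl rfl rfl rfl rfl]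
  simp only [map_add, map_sub, map_smul, smul_eq_mul, h5,
    S.form_adj hL (i := j - 3) (k := j - 2) (Or.inl (by ring)),
    S.form_skip hM (i := j - 3) (k := j - 1) (Or.inl (by ring)),
    S.form_three hL hM (i := j - 3) (k := j) (Or.inl (by ring)),
    S.form_four hL hM (i := j - 3) (k := j + 1) (Or.inl (by ring)),
    S.form_t_other rfl hL hM (j := j) (m := j - 3) (by omega),
    S.form_t_same rfl hM (j := j + 1) (m := j - 3) (by omega)]
  unfold formSix tGap
  ring

/-- The product of two axes three steps apart. -/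
theorem mul_three {s t t' : V} {L M : ℝ} {j i₁ i₂ i₃ m₁ m₂ : ℤ} (hs : sig mul (a 0) (a 1) = s)
    (hL : B (a 0) (a 1) = L) (hM : B (a 0) (a 2) = M) (ht : sig mul (a j) (a (j + 2)) = t)
    (ht' : sig mul (a (j + 1)) (a (j + 1 + 2)) = t') (h1 : i₁ = j + 1) (h2 : i₂ = j + 2)
    (h3 : i₃ = j + 3) (g1 : m₁ = j - 1) (g2 : m₂ = j - 2) :
    mul (a j) (a i₃) = t + (1 / 32 : ℝ) • (a j + a m₂)
      + (256 * L - 6) • ((s + (1 / 32 : ℝ) • (a j + a m₁)) - (t + (1 / 32 : ℝ) • (a j + a i₂)))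
      + relCoef L M • (a j - (s + (1 / 32 : ℝ) • (a j + a i₁)))
      + (32 : ℝ) • (((-19 / 3072 + L / 6) • (a i₁ + a m₁) + (7 / 6144 : ℝ) • (a i₂ + a m₂)
          + (-127 / 3072 + 5 / 3 * L - 32 / 3 * L ^ 2 - M / 24) • a j + (7 / 96 : ℝ) • t
          + (-19 / 48 + 32 / 3 * L) • s)
        - ((3 * M / 4 - 25 / 1024) • a j + (7 / 32 : ℝ) • t + (7 / 2048 : ℝ) • (a i₂ + a m₂))) := by
  rw [S.relation hL hM ht ht' h1 h2 h3 g1 g2]
  simp only [map_add, map_sub, map_smul, S.idem,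
    S.mul_skip ht (i := j) (k := m₂) (Or.inr (by omega)) (by omega),
    S.mul_skip ht (i := j) (k := i₂) (Or.inl h2) (by omega),
    S.mul_adj hs (i := j) (k := m₁) (Or.inr (by omega)),
    S.mul_adj hs (i := j) (k := i₁) (Or.inl h1),
    (S.key_products hs hL hM ht ht' h1 h2 g1 g2).1,
    S.mul_t ht hM (i := i₂) (m := j) (k := m₂) h2 g2 (by omega)]

/-- The relation obtained from the symmetry of `a (-2) ∘ a 2`. -/
theorem skew_relation {L M : ℝ} (hL : B (a 0) (a 1) = L) (hM : B (a 0) (a 2) = M) :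
    (9 / 8 - 360 * L + 12288 * L ^ 2 + 24 * M) • (a 2 - a (-2))
      + (-153 / 7 + 17760 / 7 * L - 9216 / 7 * L * M - 681984 / 7 * L ^ 2 + 8650752 / 7 * L ^ 3
          + 216 / 7 * M) • (a 1 - a (-1)) = (0 : V) := by
  obtain ⟨s, hs⟩ : ∃ s, sig mul (a 0) (a 1) = s := ⟨_, rfl⟩
  obtain ⟨te, hte⟩ : ∃ te, sig mul (a 0) (a 2) = te := ⟨_, rfl⟩
  obtain ⟨tod, hto⟩ : ∃ tod, sig mul (a 1) (a 3) = tod := ⟨_, rfl⟩
  have e0 : sig mul (a 0) (a (0 + 2)) = te := by simpa using hte
  have o1 : sig mul (a (0 + 1)) (a (0 + 1 + 2)) = tod := by simpa using hto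
  have o1' : sig mul (a 1) (a (1 + 2)) = tod := by simpa using hto
  have e2 : sig mul (a (1 + 1)) (a (1 + 1 + 2)) = te := S.sig_skip e0 (Or.inl rfl) (by norm_num)
  have om : sig mul (a (-1)) (a (-1 + 2)) = tod := S.sig_skip o1' (Or.inl rfl) (by norm_num)
  have em : sig mul (a (-1 + 1)) (a (-1 + 1 + 2)) = te := by simpa using hte
  have e2' : sig mul (a 2) (a (2 + 2)) = te := S.sig_skip e0 (Or.inl rfl) (by norm_num)
  have o3 : sig mul (a (2 + 1)) (a (2 + 1 + 2)) = tod := S.sig_skip o1' (Or.inl rfl) (by norm_num)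
  have r0 := S.relation hL hM e0 o1 (i₁ := 1) (i₂ := 2) (i₃ := 3) (m₁ := -1) (m₂ := -2)
    (by norm_num) (by norm_num) (by norm_num) (by norm_num) (by norm_num)
  have r1 := S.relation hL hM o1' e2 (i₁ := 2) (i₂ := 3) (i₃ := 4) (m₁ := 0) (m₂ := -1)
    (by norm_num) (by norm_num) (by norm_num) (by norm_num) (by norm_num)
  have rm := S.relation hL hM om em (i₁ := 0) (i₂ := 1) (i₃ := 2) (m₁ := -2) (m₂ := -3)
    (by norm_num) (by norm_num) (by norm_num) (by norm_num) (by norm_num)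
  have hm3 : a (-3) = a 2 - (256 * L - 6) • (a (-2) - a 1) - relCoef L M • (a (-1) - a 0)
      - (32 : ℝ) • (te - tod) := by
    linear_combination (norm := module) -rm
  have h3m := S.mul_three hs hL hM om em (i₁ := 0) (i₂ := 1) (i₃ := 2) (m₁ := -2) (m₂ := -3)
    (by norm_num) (by norm_num) (by norm_num) (by norm_num) (by norm_num)
  have k2 := (S.key_products hs hL hM e2' o3 (j₁ := 3) (j₂ := 4) (m₁ := 1) (m₂ := 0)
    (by norm_num) (by norm_num) (by norm_num) (by norm_num)).1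
  have k3 := S.mul_t e2' hM (i := 4) (m := 2) (k := 0) (by norm_num) (by norm_num) (by norm_num)
  have k4 := S.mul_adj hs (i := 2) (k := 3) (Or.inl (by norm_num))
  have k5 := S.mul_adj hs (i := 2) (k := 1) (Or.inr (by norm_num))
  have k6 := S.mul_skip e0 (i := 2) (k := 0) (Or.inr (by norm_num)) (by norm_num)
  have k7 : mul (a 2) (a (-1)) = mul (a (-1)) (a 2) := S.ambient.1 _ _
  have hY := congrArg (fun w => mul (a 2) w) r0
  simp only [map_add, map_sub, map_smul, S.idem, k2, k3, k4, k5, k6, k7, h3m] at hY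
  rw [r1, r0, hm3] at hY
  have hY' := congrArg (fun w => μ 0 w) hY
  simp only [map_add, map_sub, map_smul, (S.pair 0).1, S.refl, S.fix_s hs, S.fix_t e0, S.fix_t o1'] at hY'
  norm_num only at hY'
  rw [S.ambient.1 (a (-2)) (a 2)] at hY'
  unfold relCoef at hY hY'
  linear_combination (norm := module) hY - hY'

theorem equation_one {L M : ℝ} (hL : B (a 0) (a 1) = L) (hM : B (a 0) (a 2) = M) :
    -tGap L M * (1 - (256 * L - 6) + relCoef L M)
      + 32 * (((-19 / 3072 + L / 6) * (L + formThree L M) + (7 / 6144) * (1 + formFour L M)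
          + (-127 / 3072 + 5 / 3 * L - 32 / 3 * L ^ 2 - M / 24) * M
          + (7 / 96) * (M - 1 / 32 - M / 32) + (-19 / 48 + 32 / 3 * L) * (L - 1 / 32 - L / 32)
          - (1 / 16) * ((L - 1 / 32 - L / 32) + (1 / 32) * (M - L)))
        - ((3 * M / 4 - 25 / 1024) * M + (7 / 32) * (M - 1 / 32 - M / 32)
          + (7 / 2048) * (1 + formFour L M) - (1 / 16) * (M - 1 / 32 - M / 32))) = 0 := by
  obtain ⟨s, hs⟩ : ∃ s, sig mul (a 0) (a 1) = s := ⟨_, rfl⟩
  obtain ⟨te, hte⟩ : ∃ te, sig mul (a 0) (a 2) = te := ⟨_, rfl⟩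
  obtain ⟨tod, hto⟩ : ∃ tod, sig mul (a 1) (a 3) = tod := ⟨_, rfl⟩
  have e0 : sig mul (a 0) (a (0 + 2)) = te := by simpa using hte
  have o1 : sig mul (a (0 + 1)) (a (0 + 1 + 2)) = tod := by simpa using hto
  have o1' : sig mul (a 1) (a (1 + 2)) = tod := by simpa using hto
  obtain ⟨hcomm, hBs, -, hassoc, -⟩ := id S.ambient
  have k1 := (S.key_products hs hL hM e0 o1 (j₁ := 1) (j₂ := 2) (m₁ := -1) (m₂ := -2)
    (by norm_num) (by norm_num) (by norm_num) (by norm_num)).1
  have k2 := S.mul_t e0 hM (i := 2) (m := 0) (k := -2) (by norm_num) (by norm_num) (by norm_num)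
  have ts : ∀ m, m % 2 = 0 → B (a m) te = M - 1 / 32 - M / 32 := fun m hm =>
    S.form_t_same e0 hM (by omega)
  have tsc : ∀ m, m % 2 = 0 → B te (a m) = M - 1 / 32 - M / 32 := fun m hm => by
    rw [hBs]; exact ts m hm
  have to' : ∀ m, m % 2 = 1 → B (a m) te = (L - 1 / 32 - L / 32) + (1 / 32) * (M - L) := fun m hm =>
    S.form_t_other e0 hL hM (by omega)
  have toc : ∀ m, m % 2 = 1 → B te (a m) = (L - 1 / 32 - L / 32) + (1 / 32) * (M - L) := fun m hm => by
    rw [hBs]; exact to' m hm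
  have ue : ∀ m, m % 2 = 0 → B tod (a m) = (L - 1 / 32 - L / 32) + (1 / 32) * (M - L) := fun m hm => by
    rw [hBs]; exact S.form_t_other o1' hL hM (by omega)
  have sc : ∀ m, B s (a m) = L - 1 / 32 - L / 32 := fun m => by rw [hBs]; exact S.form_s hs hL m
  have pair_with : ∀ z : V, B z te = B (mul (a 0) z) (a 2) - (1 / 32) * (B z (a 0) + B z (a 2)) := by
    intro z
    rw [← hte]
    simp only [sig, map_sub, map_smul, map_add, smul_eq_mul]
    rw [hassoc, hcomm z (a 0)]
  have n1 := S.form_adj hL (i := 1) (k := 2) (Or.inl (by norm_num))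
  have n0 := S.form_skip hM (i := 0) (k := 2) (Or.inl (by norm_num))
  have n3 := S.form_three hL hM (i := -1) (k := 2) (Or.inl (by norm_num))
  have n4 := S.form_four hL hM (i := -2) (k := 2) (Or.inl (by norm_num))
  have f1 : B tod te = (-19 / 3072 + L / 6) * (L + formThree L M) + (7 / 6144) * (1 + formFour L M)
      + (-127 / 3072 + 5 / 3 * L - 32 / 3 * L ^ 2 - M / 24) * M
      + (7 / 96) * (M - 1 / 32 - M / 32) + (-19 / 48 + 32 / 3 * L) * (L - 1 / 32 - L / 32)
      - (1 / 16) * ((L - 1 / 32 - L / 32) + (1 / 32) * (M - L)) := by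
    rw [pair_with, k1]
    simp only [map_add, map_smul, LinearMap.add_apply, LinearMap.smul_apply, smul_eq_mul, n1, n0, n3, n4,
      S.norm, tsc 2 (by norm_num), ue 0 (by norm_num), ue 2 (by norm_num), sc]
    ring
  have f2 : B te te = (3 * M / 4 - 25 / 1024) * M + (7 / 32) * (M - 1 / 32 - M / 32)
      + (7 / 2048) * (1 + formFour L M) - (1 / 16) * (M - 1 / 32 - M / 32) := by
    rw [pair_with, k2]
    simp only [map_add, map_smul, LinearMap.add_apply, LinearMap.smul_apply, smul_eq_mul, n0, n4,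
      S.norm, tsc 0 (by norm_num), tsc 2 (by norm_num)]
    ring
  have hr := congrArg (fun w => B w te) (S.relation hL hM e0 o1 (i₁ := 1) (i₂ := 2) (i₃ := 3)
    (m₁ := -1) (m₂ := -2) (by norm_num) (by norm_num) (by norm_num) (by norm_num) (by norm_num))
  simp only [map_add, map_sub, map_smul, LinearMap.add_apply, LinearMap.sub_apply, LinearMap.smul_apply,
    smul_eq_mul, f1, f2, to' 3 (by norm_num), to' 1 (by norm_num), to' (-1) (by norm_num),
    ts 0 (by norm_num), ts 2 (by norm_num), ts (-2) (by norm_num)] at hr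
  unfold tGap
  linear_combination -hr

theorem equation_two {L M : ℝ} (hL : B (a 0) (a 1) = L) (hM : B (a 0) (a 2) = M) :
    (9 / 8 - 360 * L + 12288 * L ^ 2 + 24 * M) * (formThree L M - L)
      + (-153 / 7 + 17760 / 7 * L - 9216 / 7 * L * M - 681984 / 7 * L ^ 2 + 8650752 / 7 * L ^ 3
          + 216 / 7 * M) * (M - 1) = 0 := by
  have h := congrArg (fun w => B (a (-1)) w) (S.skew_relation hL hM)
  simpa [S.norm, S.form_three hL hM (i := -1) (k := 2) (Or.inl (by norm_num)),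
    S.form_adj hL (i := -1) (k := -2) (Or.inr (by norm_num)),
    S.form_skip hM (i := -1) (k := 1) (Or.inl (by norm_num))] using h

/-- Sakuma's theorem: two of seven consecutive axes in the orbit coincide. -/
theorem sakuma : ∃ i j : ℤ, i < j ∧ j ≤ i + 6 ∧ a i = a j := by
  obtain ⟨L, hL⟩ : ∃ L, B (a 0) (a 1) = L := ⟨_, rfl⟩
  obtain ⟨M, hM⟩ : ∃ M, B (a 0) (a 2) = M := ⟨_, rfl⟩
  have key : ∀ i j : ℤ, B (a i) (a j) = 1 → a i = a j := fun i j h =>
    eq_of_form_one S.ambient (S.norm i) (S.norm j) h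
  have k1 : L = 1 → ∃ i j : ℤ, i < j ∧ j ≤ i + 6 ∧ a i = a j := fun h =>
    ⟨0, 1, by norm_num, by norm_num, key _ _ (hL.trans h)⟩
  have k2 : M = 1 → ∃ i j : ℤ, i < j ∧ j ≤ i + 6 ∧ a i = a j := fun h =>
    ⟨0, 2, by norm_num, by norm_num, key _ _ (hM.trans h)⟩
  have k3 : formThree L M = 1 → ∃ i j : ℤ, i < j ∧ j ≤ i + 6 ∧ a i = a j := fun h =>
    ⟨0, 3, by norm_num, by norm_num, key _ _ ((S.form_three hL hM (Or.inl (by norm_num))).trans h)⟩
  have k4 : formFour L M = 1 → ∃ i j : ℤ, i < j ∧ j ≤ i + 6 ∧ a i = a j := fun h =>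
    ⟨0, 4, by norm_num, by norm_num, key _ _ ((S.form_four hL hM (Or.inl (by norm_num))).trans h)⟩
  have k5 : formFive L M = 1 → ∃ i j : ℤ, i < j ∧ j ≤ i + 6 ∧ a i = a j := fun h =>
    ⟨0 - 2, 0 + 3, by norm_num, by norm_num, key _ _ ((S.form_five hL hM 0).trans h)⟩
  have k6 : formSix L M = 1 → ∃ i j : ℤ, i < j ∧ j ≤ i + 6 ∧ a i = a j := fun h =>
    ⟨0 - 3, 0 + 3, by norm_num, by norm_num, key _ _ ((S.form_six hL hM 0).trans h)⟩
  have E1 := S.equation_one hL hM
  have E2 := S.equation_two hL hM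
  unfold formFour formThree relCoef tGap at E1
  unfold formThree relCoef tGap at E2
  have hroots : (L - 0) * (L - 1) * (L - 1 / 8) * (L - 13 / 256) * (L - 1 / 64) * (L - 1 / 32)
      * (L - 3 / 128) * (L - 5 / 256) = 0 := by
    linear_combination ((-6253 / 5629499534213120 : ℝ)
      + (-1903 / 615726511554560 : ℝ) * M ^ 1
      + (1 / 1202590842880 : ℝ) * M ^ 2
      + (291323 / 1847179534663680 : ℝ) * L ^ 1
      + (-20581 / 28862180229120 : ℝ) * L ^ 1 * M ^ 1
      + (3 / 37580963840 : ℝ) * L ^ 1 * M ^ 2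
      + (-10013 / 2886218022912 : ℝ) * L ^ 2
      + (-3621 / 75161927680 : ℝ) * L ^ 2 * M ^ 1
      + (54559 / 112742891520 : ℝ) * L ^ 3
      + (1 / 440401920 : ℝ) * L ^ 3 * M ^ 1
      + (-4253 / 220200960 : ℝ) * L ^ 4) * E1
      + ((-481 / 5629499534213120 : ℝ)
      + (557 / 1847179534663680 : ℝ) * M ^ 1
      + (-1 / 14431090114560 : ℝ) * M ^ 2
      + (-16259 / 369435906932736 : ℝ) * L ^ 1
      + (209 / 5772436045824 : ℝ) * L ^ 1 * M ^ 1
      + (369 / 137438953472 : ℝ) * L ^ 2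
      + (-1 / 225485783040 : ℝ) * L ^ 2 * M ^ 1
      + (2293 / 112742891520 : ℝ) * L ^ 3) * E2
  simp only [mul_eq_zero, sub_eq_zero] at hroots
  unfold formFive formFour formThree relCoef tGap at k5
  unfold formSix formFive formFour formThree relCoef tGap at k6
  unfold formFour formThree relCoef tGap at k4
  unfold formThree relCoef tGap at k3
  rcases hroots with ((((((h | h) | h) | h) | h) | h) | h) | h <;> subst h
  · have hM' : M = (1 : ℝ) := by linear_combination (224 / 975 : ℝ) * E1 + (-56 / 2925 : ℝ) * E2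
    subst hM'
    exact k2 (by norm_num)
  · exact k1 rfl
  · have hM' : M = (1 : ℝ) := by linear_combination (-32 / 1995 : ℝ) * E1 + (8 / 77805 : ℝ) * E2
    subst hM'
    exact k2 (by norm_num)
  · have hM' : M = (13 / 256 : ℝ) := by linear_combination (-3008 / 55575 : ℝ) * E1 + (128 / 166725 : ℝ) * E2
    subst hM'
    exact k3 (by norm_num)
  · have hM' : (M - 1 / 8) * (M - 1 / 64) = 0 := by linear_combination (-7 / 48 : ℝ) * E1
    rcases mul_eq_zero.1 hM' with h' | h' <;> rw [sub_eq_zero] at h' <;> subst h'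
    · exact k4 (by norm_num)
    · exact k3 (by norm_num)
  · have hM' : M = (0 : ℝ) := by linear_combination (-896 / 6975 : ℝ) * E1 + (56 / 20925 : ℝ) * E2
    subst hM'
    exact k4 (by norm_num)
  · have hM' : M = (3 / 128 : ℝ) := by linear_combination (-4 / 15 : ℝ) * E1 + (4 / 585 : ℝ) * E2
    subst hM'
    exact k5 (by norm_num)
  · have hM' : M = (13 / 256 : ℝ) := by linear_combination (-10304 / 18825 : ℝ) * E1 + (896 / 56475 : ℝ) * E2
    subst hM'
    exact k6 (by norm_num)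
end AxisSeq

end Cfsg.Agent.Majorana
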